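import Cfsg.Agent.H99.SingerElation.Incid

/-!
A subgroup of `GL₃` with a transvection and a covering free group is transitive on points, and every line is the axis
of elations with two different centres.
-/

set_option autoImplicit false
set_option linter.unusedSectionVars false

namespace Cfsg.Agent.H99.SingerElation

open Matrix

variable {F : Type*} [Field F] [Fintype F] {M : Subgroup (GL (Fin 3) F)} {a : Fin 3 → F}

theorem q_pos : 2 ≤ Fintype.card F := Fintype.one_lt_card

open Classical in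
/-- The functionals killing a vector. -/
noncomputable def perp (a : Fin 3 → F) : Finset (Fin 3 → F) :=
  Finset.univ.filter fun f => f ≠ 0 ∧ f ⬝ᵥ a = 0

theorem mem_perp_iff {f : Fin 3 → F} : f ∈ perp a ↔ f ≠ 0 ∧ f ⬝ᵥ a = 0 := by simp [perp]

open Classical in
theorem card_perp (ha : a ≠ 0) : (perp a).card = Fintype.card F ^ 2 - 1 := by
  let L : (Fin 3 → F) →ₗ[F] F :=
    { toFun := fun f => f ⬝ᵥ a
      map_add' := fun x y => add_dotProduct _ _ _
      map_smul' := fun c x => smul_dotProduct _ _ _ }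
  have hL : L ≠ 0 := fun h => by
    obtain ⟨i, hi⟩ := Function.ne_iff.1 ha
    have := LinearMap.congr_fun h (Pi.single i 1)
    simp [L] at this
    exact hi this
  have h2 : Module.finrank F (LinearMap.ker L) = 2 := by
    have h1 := LinearMap.finrank_range_add_finrank_ker L
    rw [LinearMap.range_eq_top.2 (LinearMap.surjective hL), finrank_top, Module.finrank_self,
      Module.finrank_fin_fun] at h1
    omega
  have h3 : (Finset.univ.filter fun f => f ∈ LinearMap.ker L).card = Fintype.card F ^ 2 := by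
    rw [← Fintype.card_subtype, ← Nat.card_eq_fintype_card, ← Nat.card_eq_fintype_card (α := F), ← h2]
    exact Module.natCard_eq_pow_finrank (K := F) (V := LinearMap.ker L)
  have e : perp a = (Finset.univ.filter fun f => f ∈ LinearMap.ker L).erase 0 := by
    ext f
    simp [mem_perp_iff, L]
  rw [e, Finset.card_erase_of_mem (by simp), h3]

open Classical in
/-- The functionals killing two independent vectors. -/
theorem card_perp_two (ha : a ≠ 0) {v : Fin 3 → F} (hv : ∀ c : F, v ≠ c • a) :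
    ((perp a).filter fun f => f ⬝ᵥ v = 0).card = Fintype.card F - 1 := by
  let L : (Fin 3 → F) →ₗ[F] (Fin 2 → F) :=
    { toFun := fun f => ![f ⬝ᵥ a, f ⬝ᵥ v]
      map_add' := fun x y => by ext i; fin_cases i <;> simp
      map_smul' := fun c x => by ext i; fin_cases i <;> simp }
  obtain ⟨f, hf, hf0⟩ := Submodule.exists_mem_ne_zero_of_ne_bot (LinearMap.ker_ne_bot_of_finrank_lt (f := L) (by simp))
  rw [LinearMap.mem_ker] at hf
  have h1 : f ⬝ᵥ a = 0 := congrFun hf 0
  have h2 : f ⬝ᵥ v = 0 := congrFun hf 1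
  rw [← card_line hf0]
  congr 1
  ext u
  simp only [Finset.mem_filter, mem_perp_iff, Finset.mem_univ, true_and]
  constructor
  · rintro ⟨⟨hu, hua⟩, huv⟩
    exact ⟨hu, perp_two ha hv hf0 h1 h2 hua huv⟩
  · rintro ⟨hu, c, rfl⟩
    exact ⟨⟨hu, by rw [smul_dotProduct, h1, smul_zero]⟩, by rw [smul_dotProduct, h2, smul_zero]⟩

section Count

variable (C : Cover M)

open Classical in
/-- Either everything, or one of three orbits in characteristic two. -/
theorem all_or_third (ha : a ≠ 0) {p : ℕ} [Fact p.Prime] [CharP F p]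
    (h : (pts M a).card ≡ Fintype.card F - 1 [MOD p]) :
    (∀ v, v ≠ 0 → v ∈ pts M a) ∨ (C.d = 3 ∧ p = 2 ∧ (pts M a).card = Nat.card C.G) := by
  set r := Nat.card C.G with hr
  have hr0 : 0 < r := Nat.card_pos
  obtain ⟨e, he⟩ := free_dvd C.G (pts M a) (fun g hg v hv => C.mul_mem hg hv)
    (fun v hv g hg h => C.free g hg v (mem_pts.1 hv).1 h)
  have hsub : pts M a ⊆ Finset.univ.erase 0 := fun v hv =>
    Finset.mem_erase.2 ⟨(mem_pts.1 hv).1, Finset.mem_univ v⟩
  have hle := Finset.card_le_card hsub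
  have hU : (Finset.univ.erase (0 : Fin 3 → F)).card = C.d * r := by
    rw [Finset.card_erase_of_mem (Finset.mem_univ _), Finset.card_univ, card_vec, C.card]
  have hfull : e = C.d → ∀ v, v ≠ 0 → v ∈ pts M a := fun hed v hv => by
    rw [Finset.eq_of_subset_of_card_le hsub (by rw [hU, he, hed, mul_comm])]
    exact Finset.mem_erase.2 ⟨hv, Finset.mem_univ v⟩
  have he0 : 0 < e := by
    by_contra hc
    rw [show e = 0 by omega, mul_zero, Finset.card_eq_zero] at he
    exact Finset.notMem_empty a (he ▸ self_mem_pts ha)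
  have hed : e ≤ C.d := by
    rw [hU, he, mul_comm] at hle
    exact Nat.le_of_mul_le_mul_right hle hr0
  rcases C.hd with hd | hd
  · exact Or.inl (hfull (by omega))
  by_cases he3 : e = C.d
  · exact Or.inl (hfull he3)
  refine Or.inr ⟨hd, ?_⟩
  have hq0 : (Fintype.card F : F) = 0 := by
    have := FiniteField.cast_card_eq_zero F
    exact this
  have h1 : ((e : F) * (r : F)) = -1 := by
    have := (CharP.natCast_eq_natCast F p).2 h
    rw [he, Nat.cast_mul, Nat.cast_sub (by have := q_pos (F := F); omega), hq0, Nat.cast_one, zero_sub] at this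
    rw [mul_comm]
    exact this
  have h2 : ((3 : F) * (r : F)) = -1 := by
    have h3 : 1 ≤ Fintype.card F ^ 3 := Nat.one_le_pow _ _ Fintype.card_pos
    have := congrArg (Nat.cast (R := F)) C.card
    rw [hd, Nat.cast_mul, Nat.cast_sub h3, Nat.cast_pow, hq0, Nat.cast_one, zero_pow (by norm_num), zero_sub] at this
    exact_mod_cast this
  have hr' : (r : F) ≠ 0 := fun h0 => by
    rw [h0, mul_zero] at h1
    exact one_ne_zero (α := F) (by linear_combination h1)
  have h3 : (e : F) = 3 := mul_right_cancel₀ hr' (h1.trans h2.symm)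
  have he12 : e = 1 ∨ e = 2 := by omega
  rcases he12 with rfl | rfl
  · refine ⟨?_, by rw [he, mul_one]⟩
    rw [Nat.cast_one] at h3
    have h4 : ((2 : ℕ) : F) = 0 := by push_cast; linear_combination -h3
    exact (Nat.prime_dvd_prime_iff_eq (Fact.out) Nat.prime_two).1 ((CharP.cast_eq_zero_iff F p 2).1 h4)
  · exfalso
    push_cast at h3
    exact one_ne_zero (α := F) (by linear_combination -h3)

open Classical in
/-- The number of points of the orbit killed by a functional, as vectors. -/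
noncomputable def xv (M : Subgroup (GL (Fin 3) F)) (a f : Fin 3 → F) : ℕ :=
  ((pts M a).filter fun v => f ⬝ᵥ v = 0).card

/-- The same, as points. -/
noncomputable def xp (M : Subgroup (GL (Fin 3) F)) (a f : Fin 3 → F) : ℕ :=
  xv M a f / (Fintype.card F - 1)

open Classical in
theorem xv_eq (a f : Fin 3 → F) : xv M a f = (Fintype.card F - 1) * xp M a f := by
  refine (Nat.mul_div_cancel' (scal_dvd _ (fun h => (mem_pts.1 (Finset.mem_filter.1 h).1).1 rfl)
    fun v hv c hc => ?_)).symm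
  obtain ⟨h1, h2⟩ := Finset.mem_filter.1 hv
  exact Finset.mem_filter.2 ⟨smul_mem_pts h1 hc, by rw [dotProduct_smul, h2, smul_zero]⟩

open Classical in
theorem xp_one (ha : a ≠ 0) {f : Fin 3 → F} (hfa : f ⬝ᵥ a = 0)
    (h : ∀ v ∈ pts M a, f ⬝ᵥ v = 0 → ∃ c : F, v = c • a) : xp M a f = 1 := by
  have e : xv M a f = Fintype.card F - 1 := by
    rw [xv, ← card_line ha]
    congr 1
    ext v
    simp only [Finset.mem_filter, Finset.mem_univ, true_and]
    constructor
    · exact fun hv => ⟨(mem_pts.1 hv.1).1, h v hv.1 hv.2⟩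
    · rintro ⟨hv, c, rfl⟩
      exact ⟨smul_mem_pts (self_mem_pts ha) (fun h0 => hv (by rw [h0, zero_smul])),
        by rw [dotProduct_smul, hfa, smul_zero]⟩
  rw [xp, e, Nat.div_self (by have := q_pos (F := F); omega)]

open Classical in
/-- An orbit of functionals. -/
noncomputable def orb (C : Cover M) (f : Fin 3 → F) : Finset (Fin 3 → F) :=
  Finset.univ.image fun g : ↥C.G => f ᵥ* ((g : GL (Fin 3) F) : Matrix (Fin 3) (Fin 3) F)

theorem orb_inj {f : Fin 3 → F} (hf : f ≠ 0) :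
    Function.Injective fun g : ↥C.G => f ᵥ* ((g : GL (Fin 3) F) : Matrix (Fin 3) (Fin 3) F) := fun g g' h => by
  have h1 := congrArg (· ᵥ* (((g'⁻¹ : ↥C.G) : GL (Fin 3) F) : Matrix (Fin 3) (Fin 3) F)) h
  simp only [vecMul_vecMul, ← Units.val_mul, ← Subgroup.coe_mul, mul_inv_cancel, Subgroup.coe_one, Units.val_one,
    vecMul_one] at h1
  have := C.free' _ (g * g'⁻¹).2 f hf h1
  exact mul_inv_eq_one.1 (Subtype.ext this)

open Classical in
theorem card_orb {f : Fin 3 → F} (hf : f ≠ 0) : (orb C f).card = Nat.card C.G := by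
  rw [orb, Finset.card_image_of_injective _ (orb_inj C hf), Finset.card_univ, Nat.card_eq_fintype_card]

open Classical in
theorem xp_orb {f u : Fin 3 → F} (hu : u ∈ orb C f) : xp M a u = xp M a f := by
  obtain ⟨g, -, rfl⟩ := Finset.mem_image.1 hu
  unfold xp xv
  congr 1
  refine Finset.card_bij' (fun v _ => ((g : GL (Fin 3) F) : Matrix (Fin 3) (Fin 3) F) *ᵥ v)
    (fun v _ => (((g : GL (Fin 3) F)⁻¹ : GL (Fin 3) F) : Matrix (Fin 3) (Fin 3) F) *ᵥ v) ?_ ?_ ?_ ?_
  · intro v hv
    obtain ⟨h1, h2⟩ := Finset.mem_filter.1 hv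
    exact Finset.mem_filter.2 ⟨C.mul_mem g.2 h1, by rw [dotProduct_mulVec]; exact h2⟩
  · intro v hv
    obtain ⟨h1, h2⟩ := Finset.mem_filter.1 hv
    refine Finset.mem_filter.2 ⟨C.mul_mem (C.G.inv_mem g.2) h1, ?_⟩
    rw [← dotProduct_mulVec, inv_glv]
    exact h2
  · exact fun v _ => glv_inv _ v
  · exact fun v _ => inv_glv _ v

variable (hC : (pts M a).card = Nat.card C.G)
include hC

open Classical in
theorem pts_eq_image (ha : a ≠ 0) :
    pts M a = Finset.univ.image fun g : ↥C.G => ((g : GL (Fin 3) F) : Matrix (Fin 3) (Fin 3) F) *ᵥ a := by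
  have hinj : Function.Injective fun g : ↥C.G => ((g : GL (Fin 3) F) : Matrix (Fin 3) (Fin 3) F) *ᵥ a := fun g g' h => by
    have h1 := congrArg ((((g'⁻¹ : ↥C.G) : GL (Fin 3) F) : Matrix (Fin 3) (Fin 3) F) *ᵥ ·) h
    simp only [mulVec_mulVec, ← Units.val_mul, ← Subgroup.coe_mul, inv_mul_cancel, Subgroup.coe_one, Units.val_one,
      one_mulVec] at h1
    have := C.free _ (g'⁻¹ * g).2 a ha h1
    exact (inv_mul_eq_one.1 (Subtype.ext this)).symm
  refine (Finset.eq_of_subset_of_card_le (fun v hv => ?_) ?_).symm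
  · obtain ⟨g, -, rfl⟩ := Finset.mem_image.1 hv
    exact C.mul_mem g.2 (self_mem_pts ha)
  · rw [Finset.card_image_of_injective _ hinj, Finset.card_univ, hC, Nat.card_eq_fintype_card]

open Classical in
theorem card_orb_perp (ha : a ≠ 0) {f : Fin 3 → F} (hf : f ≠ 0) :
    ((perp a).filter fun u => u ∈ orb C f).card = (Fintype.card F - 1) * xp M a f := by
  rw [← xv_eq, xv, pts_eq_image C hC ha, Finset.filter_image, Finset.card_image_of_injOn]
  swap
  · intro g _ g' _ h
    have h1 := congrArg ((((g'⁻¹ : ↥C.G) : GL (Fin 3) F) : Matrix (Fin 3) (Fin 3) F) *ᵥ ·) h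
    simp only [mulVec_mulVec, ← Units.val_mul, ← Subgroup.coe_mul, inv_mul_cancel, Subgroup.coe_one, Units.val_one,
      one_mulVec] at h1
    have := C.free _ (g'⁻¹ * g).2 a ha h1
    exact (inv_mul_eq_one.1 (Subtype.ext this)).symm
  rw [show (perp a).filter (fun u => u ∈ orb C f) = (orb C f).filter (fun u => u ⬝ᵥ a = 0) by
    ext u
    simp only [Finset.mem_filter, mem_perp_iff, orb, Finset.mem_image, Finset.mem_univ, true_and]
    constructor
    · exact fun h => ⟨h.2, h.1.2⟩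
    · rintro ⟨⟨g, rfl⟩, h⟩
      exact ⟨⟨glv_dual_ne_zero _ hf, h⟩, g, rfl⟩,
    orb, Finset.filter_image, Finset.card_image_of_injective _ (orb_inj C hf)]
  simp only [dotProduct_mulVec]

open Classical in
/-- The incidence numbers of the three orbits of functionals. -/
theorem three (hd : C.d = 3) (ha : a ≠ 0) {f₁ : Fin 3 → F} (hf₁ : f₁ ≠ 0) :
    ∃ f₂ f₃, f₂ ≠ 0 ∧ f₃ ≠ 0 ∧ xp M a f₁ + xp M a f₂ + xp M a f₃ = Fintype.card F + 1 ∧
      3 * (xp M a f₁ ^ 2 + xp M a f₂ ^ 2 + xp M a f₃ ^ 2) = Fintype.card F ^ 2 + 4 * Fintype.card F + 1 := by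
  have hcard := C.card
  rw [hd] at hcard
  set r := Nat.card C.G with hr
  set U := (Finset.univ.erase (0 : Fin 3 → F)) with hU
  have hUc : U.card = 3 * r := by
    rw [hU, Finset.card_erase_of_mem (Finset.mem_univ _), Finset.card_univ, card_vec, hcard]
  have hr0 : 0 < r := Nat.card_pos
  have hsubU : ∀ f, f ≠ 0 → orb C f ⊆ U := fun f hf u hu => by
    obtain ⟨g, -, rfl⟩ := Finset.mem_image.1 hu
    exact Finset.mem_erase.2 ⟨glv_dual_ne_zero _ hf, Finset.mem_univ _⟩
  have hdisj : ∀ f f', f' ∉ orb C f → Disjoint (orb C f) (orb C f') := fun f f' hn => by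
    rw [Finset.disjoint_left]
    intro u hu hu'
    obtain ⟨g, -, rfl⟩ := Finset.mem_image.1 hu
    obtain ⟨g', -, he⟩ := Finset.mem_image.1 hu'
    refine hn (Finset.mem_image.2 ⟨g * g'⁻¹, Finset.mem_univ _, ?_⟩)
    rw [Subgroup.coe_mul, Units.val_mul, ← vecMul_vecMul, ← he, vecMul_vecMul, ← Units.val_mul, ← Subgroup.coe_mul,
      mul_inv_cancel, Subgroup.coe_one, Units.val_one, vecMul_one]
  obtain ⟨f₂, hf₂U, hf₂⟩ := Finset.exists_mem_notMem_of_card_lt_card (s := orb C f₁) (t := U)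
    (by rw [card_orb C hf₁, hUc]; omega)
  have hf₂0 : f₂ ≠ 0 := (Finset.mem_erase.1 hf₂U).1
  obtain ⟨f₃, hf₃U, hf₃⟩ := Finset.exists_mem_notMem_of_card_lt_card (s := orb C f₁ ∪ orb C f₂) (t := U)
    (by rw [Finset.card_union_of_disjoint (hdisj _ _ hf₂), card_orb C hf₁, card_orb C hf₂0, hUc]; omega)
  have hf₃0 : f₃ ≠ 0 := (Finset.mem_erase.1 hf₃U).1
  rw [Finset.mem_union, not_or] at hf₃
  have d12 := hdisj _ _ hf₂
  have d13 := hdisj _ _ hf₃.1
  have d23 := hdisj _ _ hf₃.2
  have hcover : orb C f₁ ∪ orb C f₂ ∪ orb C f₃ = U := by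
    refine Finset.eq_of_subset_of_card_le
      (Finset.union_subset (Finset.union_subset (hsubU _ hf₁) (hsubU _ hf₂0)) (hsubU _ hf₃0)) ?_
    rw [Finset.card_union_of_disjoint (Finset.disjoint_union_left.2 ⟨d13, d23⟩),
      Finset.card_union_of_disjoint d12, card_orb C hf₁, card_orb C hf₂0, card_orb C hf₃0, hUc]
    omega
  refine ⟨f₂, f₃, hf₂0, hf₃0, ?_⟩
  set S : (Fin 3 → F) → Finset (Fin 3 → F) := fun f => (perp a).filter fun u => u ∈ orb C f with hS
  have hSd : ∀ f f', Disjoint (orb C f) (orb C f') → Disjoint (S f) (S f') := fun f f' h =>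
    Finset.disjoint_left.2 fun u hu hu' =>
      Finset.disjoint_left.1 h (Finset.mem_filter.1 hu).2 (Finset.mem_filter.1 hu').2
  have hpart : perp a = S f₁ ∪ S f₂ ∪ S f₃ := by
    ext u
    simp only [hS, Finset.mem_union, Finset.mem_filter]
    constructor
    · intro hu
      have : u ∈ U := Finset.mem_erase.2 ⟨(mem_perp_iff.1 hu).1, Finset.mem_univ u⟩
      rw [← hcover, Finset.mem_union, Finset.mem_union] at this
      rcases this with (h | h) | h
      exacts [Or.inl (Or.inl ⟨hu, h⟩), Or.inl (Or.inr ⟨hu, h⟩), Or.inr ⟨hu, h⟩]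
    · rintro ((h | h) | h) <;> exact h.1
  have hd3 : Disjoint (S f₁ ∪ S f₂) (S f₃) := Finset.disjoint_union_left.2 ⟨hSd _ _ d13, hSd _ _ d23⟩
  set q := Fintype.card F with hq
  obtain ⟨w, hw⟩ : ∃ w, q = w + 1 := ⟨q - 1, by have := q_pos (F := F); omega⟩
  have hw0 : 0 < w := by have := q_pos (F := F); omega
  have hqw : q - 1 = w := by omega
  have hq2 : q ^ 2 - 1 = w * (q + 1) := by
    have : q ^ 2 = w * (q + 1) + 1 := by rw [hw]; ring
    omega
  have e1 : w * (xp M a f₁ + xp M a f₂ + xp M a f₃) = w * (q + 1) := by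
    rw [← hq2, ← card_perp ha, hpart, Finset.card_union_of_disjoint hd3,
      Finset.card_union_of_disjoint (hSd _ _ d12), card_orb_perp C hC ha hf₁, card_orb_perp C hC ha hf₂0,
      card_orb_perp C hC ha hf₃0, ← hq, hqw]
    ring
  have hs : ∀ f, f ≠ 0 → ∑ u ∈ S f, xv M a u = w * xp M a f * (w * xp M a f) := fun f hf => by
    rw [Finset.sum_congr rfl (fun u hu => (xv_eq a u).trans (by rw [xp_orb C (Finset.mem_filter.1 hu).2])),
      Finset.sum_const, smul_eq_mul, card_orb_perp C hC ha hf, ← hq, hqw]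
  have e2 : ∑ u ∈ perp a, xv M a u = w * (q ^ 2 - 1) + (r - w) * w := by
    have hdc : ∑ u ∈ perp a, xv M a u = ∑ v ∈ pts M a, ((perp a).filter fun f => f ⬝ᵥ v = 0).card :=
      Finset.sum_card_bipartiteAbove_eq_sum_card_bipartiteBelow (fun f v => f ⬝ᵥ v = 0)
    set L := (Finset.univ.filter fun v : Fin 3 → F => v ≠ 0 ∧ ∃ c : F, v = c • a) with hL
    have hLsub : L ⊆ pts M a := fun v hv => by
      obtain ⟨-, hv0, c, rfl⟩ := Finset.mem_filter.1 hv
      exact smul_mem_pts (self_mem_pts ha) (fun h0 => hv0 (by rw [h0, zero_smul]))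
    rw [hdc, ← Finset.sum_sdiff hLsub, add_comm]
    congr 1
    · rw [Finset.sum_congr rfl (g := fun _ => q ^ 2 - 1), Finset.sum_const, smul_eq_mul, hL, card_line ha, ← hq, hqw]
      intro v hv
      obtain ⟨-, -, c, rfl⟩ := Finset.mem_filter.1 hv
      rw [Finset.filter_true_of_mem, card_perp ha]
      intro f hf
      rw [dotProduct_smul, (mem_perp_iff.1 hf).2, smul_zero]
    · rw [Finset.sum_congr rfl (g := fun _ => w), Finset.sum_const, smul_eq_mul,
        Finset.card_sdiff_of_subset hLsub, hC, hL, card_line ha, ← hq, hqw]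
      intro v hv
      obtain ⟨hv1, hv2⟩ := Finset.mem_sdiff.1 hv
      rw [card_perp_two ha (fun c hc => hv2 (Finset.mem_filter.2 ⟨Finset.mem_univ v, (mem_pts.1 hv1).1, c, hc⟩)),
        ← hq, hqw]
  rw [hpart, Finset.sum_union hd3, Finset.sum_union (hSd _ _ d12), hs _ hf₁, hs _ hf₂0, hs _ hf₃0, hq2] at e2
  have hN : 3 * r = w * (q ^ 2 + q + 1) := by
    have : q ^ 3 = w * (q ^ 2 + q + 1) + 1 := by rw [hw]; ring
    omega
  have hrw : w ≤ r := by
    have : 3 * w ≤ w * (q ^ 2 + q + 1) := by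
      rw [mul_comm 3]
      exact Nat.mul_le_mul_left w (by nlinarith [q_pos (F := F)])
    omega
  obtain ⟨s, hs'⟩ := Nat.exists_eq_add_of_le hrw
  rw [hs', Nat.add_sub_cancel_left] at e2
  refine ⟨Nat.eq_of_mul_eq_mul_left hw0 e1, ?_⟩
  refine Nat.eq_of_mul_eq_mul_left (mul_pos hw0 hw0) ?_
  rw [hs'] at hN
  linear_combination 3 * e2 + w * hN

end Count

section Unique

open Classical in
/-- Not every point has one axis and every axis one centre. -/
theorem false_of_unique {p : ℕ} [Fact p.Prime] [CharP F p] (C : Cover M) (h4 : Fintype.card F ≠ 4) (ha : a ≠ 0)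
    {f : Fin 3 → F} (hf : f ≠ 0) (h : Ela M f a)
    (h1 : ∀ f f' b : Fin 3 → F, f ≠ 0 → b ≠ 0 → Ela M f b → Ela M f' b → ∃ c : F, f' = c • f)
    (h2 : ∀ f b b' : Fin 3 → F, f ≠ 0 → b ≠ 0 → Ela M f b → Ela M f b' → ∃ c : F, b' = c • b) : False := by
  have hline : ∀ v ∈ pts M a, f ⬝ᵥ v = 0 → ∃ c : F, v = c • a := by
    intro v hv hfv
    obtain ⟨hv0, g, hg, c, rfl⟩ := mem_pts.1 hv
    set v := c • ((g : Matrix (Fin 3) (Fin 3) F) *ᵥ a)
    have hc : c ≠ 0 := fun h0 => hv0 (by simp [v, h0])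
    have hψ : Ela M (c⁻¹ • (f ᵥ* ((g⁻¹ : GL (Fin 3) F) : Matrix (Fin 3) (Fin 3) F))) v := by
      rw [Ela.smul_iff hc, smul_smul, mul_inv_cancel₀ hc, one_smul]
      exact h.conj hg
    set ψ := c⁻¹ • (f ᵥ* ((g⁻¹ : GL (Fin 3) F) : Matrix (Fin 3) (Fin 3) F))
    have hψ0 : ψ ≠ 0 := smul_ne_zero (inv_ne_zero hc) (glv_dual_ne_zero g⁻¹ hf)
    obtain ⟨hfa, t, ht, hte⟩ := h
    have hconj := hψ.conj ht
    rw [hte, tr_mulVec, hfv, zero_smul, add_zero] at hconj
    obtain ⟨e, he⟩ := h1 _ _ v hψ0 hv0 hψ hconj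
    have hfψ : ∀ k : F, ψ = k • f → ∃ c : F, v = c • a := by
      intro k hk
      have hk0 : k ≠ 0 := fun h0 => hψ0 (by rw [hk, h0, zero_smul])
      rw [hk] at hψ
      obtain ⟨c', hc'⟩ := h2 f a (k • v) hf ha ⟨hfa, t, ht, hte⟩ ((Ela.smul_iff hk0).2 hψ)
      exact ⟨k⁻¹ * c', by rw [← smul_smul, ← hc', smul_smul, inv_mul_cancel₀ hk0, one_smul]⟩
    by_cases hψa : ψ ⬝ᵥ a = 0
    · by_contra hc'
      push Not at hc'
      obtain ⟨k, hk⟩ := perp_two ha hc' hf hfa hfv hψa hψ.1
      exact (hfψ k hk).elim fun c hh => hc' c hh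
    · have e1 : (t⁻¹ : GL (Fin 3) F) = ((t⁻¹ : GL (Fin 3) F)) := rfl
      have e2 : ((t⁻¹ : GL (Fin 3) F) : Matrix (Fin 3) (Fin 3) F) = 1 + vecMulVec a (-f) :=
        Units.inv_eq_of_mul_eq_one_right (by rw [hte, tr_mul hfa, add_neg_cancel, vecMulVec_zero, add_zero])
      rw [e2, vecMul_add, vecMul_one, vecMul_vecMulVec] at he
      have he1 : (1 : F) - e ≠ 0 := fun h0 => by
        rw [← sub_eq_zero.1 h0, one_smul] at he
        refine smul_ne_zero hψa hf (?_ : (ψ ⬝ᵥ a) • f = 0)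
        linear_combination (norm := module) -he
      refine hfψ ((1 - e)⁻¹ * (ψ ⬝ᵥ a)) ?_
      rw [mul_smul, eq_inv_smul_iff₀ he1]
      linear_combination (norm := module) he
  have hfix : (pts M a).card ≡ Fintype.card F - 1 [MOD p] := by
    convert card_modEq_fixed (M := M) (p := p) a a using 1
    rw [← card_line ha]
    congr 1
    ext v
    simp only [Finset.mem_filter, Finset.mem_univ, true_and]
    constructor
    · rintro ⟨hv, c, rfl⟩
      refine ⟨smul_mem_pts (self_mem_pts ha) (fun h0 => hv (by rw [h0, zero_smul])), fun u hu => Or.inl ?_⟩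
      rw [dotProduct_smul, hu.1, smul_zero]
    · rintro ⟨hv, hu⟩
      exact ⟨(mem_pts.1 hv).1, hline v hv ((hu f h).resolve_right ha)⟩
  set q := Fintype.card F with hq
  rcases all_or_third C ha hfix with hall | ⟨hd, hp, hC⟩
  · have hle : (perp f).card ≤ q - 1 := by
      rw [← card_line ha]
      refine Finset.card_le_card fun v hv => ?_
      obtain ⟨hv0, hvf⟩ := mem_perp_iff.1 hv
      exact Finset.mem_filter.2 ⟨Finset.mem_univ v, hv0, hline v (hall v hv0) (by rw [dotProduct_comm]; exact hvf)⟩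
    rw [card_perp hf, ← hq] at hle
    have := q_pos (F := F)
    have : q + 1 ≤ q ^ 2 := by nlinarith
    omega
  · subst hp
    obtain ⟨f₂, f₃, -, -, e1, e2⟩ := three C hC hd ha hf
    rw [xp_one ha h.1 hline] at e1 e2
    obtain ⟨⟨n, hn⟩, -, hn2⟩ : ∃ n : ℕ+, Nat.Prime 2 ∧ q = 2 ^ (n : ℕ) := FiniteField.card F 2
    have h3 : 3 ∣ q - 1 := hd ▸ C.d_dvd
    have hq8 : 8 ≤ q := by
      simp only [PNat.mk_coe] at hn2
      match n, hn, hn2 with
      | 1, _, hn2 => norm_num at hn2; omega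
      | 2, _, hn2 => norm_num at hn2; omega
      | m + 3, _, hn2 => rw [hn2, pow_add]; nlinarith [Nat.one_le_pow m 2 (by norm_num)]
    set y := xp M a f₂
    set z := xp M a f₃
    rw [← hq] at e1 e2
    have hyz : y + z = q := by omega
    nlinarith [sq_nonneg ((y : ℤ) - z), hyz]

end Unique

section Two

/-- The arithmetic contradiction. -/
theorem arith_false {q x y z : ℕ} (h16 : 16 ≤ q) (h4 : 4 ∣ q) (e1 : x + y + z = q + 1)
    (e2 : 3 * (x ^ 2 + y ^ 2 + z ^ 2) = q ^ 2 + 4 * q + 1) (hx : x = 0 ∨ x = 3 ∨ ∃ i, x = 4 * i + 1)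
    (hy : y = 0 ∨ y = 3 ∨ ∃ i, y = 4 * i + 1) (hz : z = 0 ∨ z = 3 ∨ ∃ i, z = 4 * i + 1) : False := by
  obtain ⟨t, rfl⟩ := h4
  have one : ∀ i j : ℕ, 3 + (4 * i + 1) + (4 * j + 1) = 4 * t + 1 →
      3 * (3 ^ 2 + (4 * i + 1) ^ 2 + (4 * j + 1) ^ 2) = (4 * t) ^ 2 + 4 * (4 * t) + 1 → False := by
    intro i j a1 a2
    have ht : t = i + j + 1 := by omega
    subst ht
    have : i + j ≤ 3 := by nlinarith [sq_nonneg ((i : ℤ) - j)]
    have hi : i ≤ 3 := by omega
    have hj : j ≤ 3 := by omega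
    interval_cases i <;> interval_cases j <;> omega
  rcases hx with rfl | rfl | ⟨i, rfl⟩ <;> rcases hy with rfl | rfl | ⟨j, rfl⟩ <;> rcases hz with rfl | rfl | ⟨k, rfl⟩ <;>
    first
      | omega
      | (ring_nf at e2; omega)
      | exact one j k (by omega) (by linarith)
      | exact one i k (by omega) (by linarith)
      | exact one i j (by omega) (by linarith)

variable (C : Cover M)

open Classical in
/-- A centre with two axes: the orbit is everything. -/
theorem all_of_two {p : ℕ} [Fact p.Prime] [CharP F p] (C : Cover M) (h4 : Fintype.card F ≠ 4) (ha : a ≠ 0)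
    (hT : Two M a) : ∀ v, v ≠ 0 → v ∈ pts M a := by
  obtain ⟨f, f', hf, hE, hE', hne⟩ := hT
  have hfix : (pts M a).card ≡ Fintype.card F - 1 [MOD p] := by
    convert card_modEq_fixed (M := M) (p := p) a a using 1
    rw [← card_line ha]
    congr 1
    ext v
    simp only [Finset.mem_filter, Finset.mem_univ, true_and]
    constructor
    · rintro ⟨hv, c, rfl⟩
      refine ⟨smul_mem_pts (self_mem_pts ha) (fun h0 => hv (by rw [h0, zero_smul])), fun u hu => Or.inl ?_⟩
      rw [dotProduct_smul, hu.1, smul_zero]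
    · rintro ⟨hv, hu⟩
      refine ⟨(mem_pts.1 hv).1, ?_⟩
      by_contra hc
      push Not at hc
      obtain ⟨c, hc'⟩ := perp_two ha hc hf hE.1 ((hu f hE).resolve_right ha) hE'.1 ((hu f' hE').resolve_right ha)
      exact hne c hc'
  refine (all_or_third C ha hfix).resolve_right fun ⟨hd, hp, hC⟩ => ?_
  subst hp
  set q := Fintype.card F with hq
  set w := q - 1 with hw
  have hq2 := q_pos (F := F)
  have hw0 : 0 < w := by omega
  obtain ⟨⟨n, hn⟩, -, hn2⟩ : ∃ n : ℕ+, Nat.Prime 2 ∧ q = 2 ^ (n : ℕ) := FiniteField.card F 2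
  simp only [PNat.mk_coe] at hn2
  have h3 : 3 ∣ q - 1 := hd ▸ C.d_dvd
  have hq16 : 16 ≤ q ∧ 4 ∣ q := by
    match n, hn, hn2 with
    | 1, _, hn2 => norm_num at hn2; omega
    | 2, _, hn2 => norm_num at hn2; omega
    | 3, _, hn2 => norm_num at hn2; omega
    | m + 4, _, hn2 =>
      rw [hn2, pow_add]
      exact ⟨by nlinarith [Nat.one_le_pow m 2 (by norm_num)], Dvd.dvd.mul_left (by norm_num) _⟩
  have hwodd : Odd w := by
    obtain ⟨t, ht⟩ := hq16.2
    exact ⟨2 * t - 1, by omega⟩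
  set U := Finset.univ.filter fun u => Ela M u a with hU
  set P := transG M a with hP
  have hPU : Nat.card P = U.card := by
    have := card_transG (M := M) ha (fun _ => True)
    simp only [and_true] at this
    rw [hU, ← this]
    refine Nat.card_congr (Equiv.subtypeEquivRight fun g => ⟨fun hg => ⟨hg, ?_⟩, fun hg => hg.1⟩)
    obtain ⟨-, u, -, e⟩ := id hg
    exact ⟨u, trivial, e⟩
  have hPp : IsPGroup 2 ↥P := fun g => ⟨1, by
    rw [pow_one]; exact Subtype.ext (by rw [SubmonoidClass.coe_pow]; exact transG_pow g.2)⟩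
  obtain ⟨m, hm⟩ := hPp.exists_card_eq
  rw [hPU] at hm
  set K : (Fin 3 → F) → Finset (Fin 3 → F) := fun u => U.filter fun x => ∃ c : F, x = c • u with hK
  -- the key divisibility
  have hdiv : ∀ u, u ≠ 0 → u ⬝ᵥ a = 0 → 1 ≤ xp M a u ∧ U.card ∣ (K u).card * (w * (xp M a u - 1)) ∧
      (K u).card < U.card ∧ 0 < (K u).card := by
    intro u hu hua
    set L := (Finset.univ.filter fun v : Fin 3 → F => v ≠ 0 ∧ ∃ c : F, v = c • a) with hL
    set X := ((pts M a).filter fun v => u ⬝ᵥ v = 0) \ L with hX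
    have hLsub : L ⊆ (pts M a).filter fun v => u ⬝ᵥ v = 0 := fun v hv => by
      obtain ⟨-, hv0, c, rfl⟩ := Finset.mem_filter.1 hv
      exact Finset.mem_filter.2 ⟨smul_mem_pts (self_mem_pts ha) (fun h0 => hv0 (by rw [h0, zero_smul])),
        by rw [dotProduct_smul, hua, smul_zero]⟩
    have hcard : xv M a u = w * xp M a u := xv_eq a u
    have hle := Finset.card_le_card hLsub
    rw [hL, card_line ha] at hle
    change w ≤ xv M a u at hle
    have hx1 : 1 ≤ xp M a u := by
      rcases Nat.eq_zero_or_pos (xp M a u) with h0 | h0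
      · rw [hcard, h0] at hle; omega
      · exact h0
    refine ⟨hx1, ?_, ?_, Finset.card_pos.2 ⟨0, ?_⟩⟩
    · have hinv : ∀ g ∈ P, ∀ v ∈ X, (g : Matrix (Fin 3) (Fin 3) F) *ᵥ v ∈ X := by
        rintro g ⟨hgM, s, hs, e⟩ v hv
        obtain ⟨hv1, hv2⟩ := Finset.mem_sdiff.1 hv
        obtain ⟨hv3, hv4⟩ := Finset.mem_filter.1 hv1
        refine Finset.mem_sdiff.2 ⟨Finset.mem_filter.2 ⟨mul_mem_pts hv3 hgM, ?_⟩, fun hm' => hv2 ?_⟩
        · rw [e, tr_mulVec, dotProduct_add, dotProduct_smul, hua, smul_zero, add_zero, hv4]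
        · obtain ⟨-, -, c, hc⟩ := Finset.mem_filter.1 hm'
          rw [e, tr_mulVec] at hc
          refine Finset.mem_filter.2 ⟨Finset.mem_univ v, (mem_pts.1 hv3).1, c - s ⬝ᵥ v, ?_⟩
          rw [sub_smul, ← hc, add_sub_cancel_right]
      have := vec_stab_dvd P X hinv (K u).card fun v hv => ?_
      · rw [hPU, hX, Finset.card_sdiff_of_subset hLsub, hL, card_line ha] at this
        change U.card ∣ (K u).card * (xv M a u - w) at this
        rwa [hcard, ← Nat.mul_sub_one] at this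
      obtain ⟨hv1, hv2⟩ := Finset.mem_sdiff.1 hv
      obtain ⟨hv3, hv4⟩ := Finset.mem_filter.1 hv1
      have hind : ∀ c : F, v ≠ c • a := fun c hc =>
        hv2 (Finset.mem_filter.2 ⟨Finset.mem_univ v, (mem_pts.1 hv3).1, c, hc⟩)
      have := card_transG (M := M) ha (fun x => x ⬝ᵥ v = 0)
      rw [show K u = Finset.univ.filter fun x => Ela M x a ∧ x ⬝ᵥ v = 0 by
        ext x
        simp only [hK, hU, Finset.mem_filter, Finset.mem_univ, true_and]
        constructor
        · rintro ⟨hx, c, rfl⟩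
          exact ⟨hx, by rw [smul_dotProduct, hv4, smul_zero]⟩
        · exact fun hx => ⟨hx.1, perp_two ha hind hu hua hv4 hx.1.1 hx.2⟩, ← this]
      refine Nat.card_congr (Equiv.subtypeEquivRight fun g => and_congr_right fun hg => ?_)
      obtain ⟨-, s, hs, e⟩ := id hg
      constructor
      · intro h
        rw [e, tr_mulVec, add_eq_left, smul_eq_zero] at h
        exact ⟨s, h.resolve_right ha, e⟩
      · rintro ⟨s', hs', e'⟩
        rw [e', tr_mulVec, hs', zero_smul, add_zero]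
    · refine Finset.card_lt_card (Finset.ssubset_iff_subset_ne.2 ⟨Finset.filter_subset _ _, fun heq => ?_⟩)
      have h1 : f ∈ K u := heq ▸ Finset.mem_filter.2 ⟨Finset.mem_univ f, hE⟩
      have h2 : f' ∈ K u := heq ▸ Finset.mem_filter.2 ⟨Finset.mem_univ f', hE'⟩
      obtain ⟨c, hc⟩ := (Finset.mem_filter.1 h1).2
      obtain ⟨c', hc'⟩ := (Finset.mem_filter.1 h2).2
      refine hne (c' / c) ?_
      rw [hc, hc', smul_smul, div_mul_cancel₀]
      exact fun h0 => hf (by rw [hc, h0, zero_smul])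
    · exact Finset.mem_filter.2 ⟨Finset.mem_filter.2 ⟨Finset.mem_univ _, Ela.zero a⟩, 0, (zero_smul F u).symm⟩
  have hodd : ∀ u, u ≠ 0 → u ⬝ᵥ a = 0 → Odd (xp M a u) := by
    intro u hu hua
    obtain ⟨hx1, h1, h2, h0⟩ := hdiv u hu hua
    rcases Nat.even_or_odd (xp M a u) with he | ho
    · have hcop : U.card.Coprime (w * (xp M a u - 1)) := by
        rw [hm]
        refine Nat.Coprime.pow_left _ (Nat.coprime_two_left.2 (hwodd.mul ?_))
        obtain ⟨t, ht⟩ := he
        exact ⟨t - 1, by omega⟩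
      exact absurd (Nat.le_of_dvd h0 (hcop.dvd_of_dvd_mul_right h1)) (by omega)
    · exact ho
  have hbig : ∀ u, u ≠ 0 → u ⬝ᵥ a = 0 → xp M a u % 4 = 3 → U.card ≤ 2 * (K u).card := by
    intro u hu hua h3'
    obtain ⟨hx1, h1, -, h0⟩ := hdiv u hu hua
    obtain ⟨t, ht⟩ : ∃ t, xp M a u - 1 = 2 * (2 * t + 1) := ⟨(xp M a u - 3) / 4, by omega⟩
    rw [ht, show (K u).card * (w * (2 * (2 * t + 1))) = 2 * (K u).card * (w * (2 * t + 1)) by ring] at h1
    have hcop : U.card.Coprime (w * (2 * t + 1)) := by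
      rw [hm]
      exact Nat.Coprime.pow_left _ (Nat.coprime_two_left.2 (hwodd.mul ⟨t, rfl⟩))
    exact Nat.le_of_dvd (by omega) (hcop.dvd_of_dvd_mul_right h1)
  have hthree : ∀ u, u ≠ 0 → u ⬝ᵥ a = 0 → xp M a u % 4 = 3 → xp M a u = 3 := by
    intro u hu hua h3'
    set B := (perp a).filter fun x => x ∈ orb C u with hB
    have hBc : B.card = w * xp M a u := card_orb_perp C hC ha hu
    have hBp : ∀ x ∈ B, x ≠ 0 ∧ x ⬝ᵥ a = 0 ∧ U.card ≤ 2 * (K x).card := fun x hx => by
      obtain ⟨h1, h2⟩ := Finset.mem_filter.1 hx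
      obtain ⟨hx0, hxa⟩ := mem_perp_iff.1 h1
      exact ⟨hx0, hxa, hbig x hx0 hxa (by rw [xp_orb C h2]; exact h3')⟩
    have huB : u ∈ B := Finset.mem_filter.2 ⟨mem_perp_iff.2 ⟨hu, hua⟩,
      Finset.mem_image.2 ⟨1, Finset.mem_univ _, by rw [Subgroup.coe_one, Units.val_one, vecMul_one]⟩⟩
    by_cases hone : ∀ x ∈ B, ∃ c : F, x = c • u
    · have : B.card ≤ w := by
        rw [hw, hq, ← card_line hu]
        exact Finset.card_le_card fun x hx => Finset.mem_filter.2 ⟨Finset.mem_univ x, (hBp x hx).1, hone x hx⟩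
      rw [hBc] at this
      have : w * xp M a u ≤ w * 1 := by omega
      have := Nat.le_of_mul_le_mul_left this hw0
      omega
    push Not at hone
    obtain ⟨x, hx, hxu⟩ := hone
    have hmul : (K u).card * (K x).card ≤ U.card := by
      rw [← Finset.card_product]
      refine Finset.card_le_card_of_injOn (fun p => p.1 + p.2) (fun p hp => ?_) ?_
      · obtain ⟨h1, h2⟩ := Finset.mem_product.1 hp
        exact Finset.mem_filter.2 ⟨Finset.mem_univ _,
          (Finset.mem_filter.1 (Finset.mem_filter.1 h1).1).2.add (Finset.mem_filter.1 (Finset.mem_filter.1 h2).1).2⟩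
      · intro p hp p' hp' he
        obtain ⟨h1, h2⟩ := Finset.mem_product.1 hp
        obtain ⟨h1', h2'⟩ := Finset.mem_product.1 hp'
        obtain ⟨c, hc⟩ := (Finset.mem_filter.1 h1).2
        obtain ⟨e, he2⟩ := (Finset.mem_filter.1 h2).2
        obtain ⟨c', hc'⟩ := (Finset.mem_filter.1 h1').2
        obtain ⟨e', he2'⟩ := (Finset.mem_filter.1 h2').2
        simp only [hc, hc', he2, he2'] at he
        by_cases hee : e - e' = 0
        · obtain rfl := sub_eq_zero.1 hee
          have := add_right_cancel he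
          exact Prod.ext (by rw [hc, hc', this]) (by rw [he2, he2'])
        · refine absurd ?_ (hxu ((c' - c) / (e - e')))
          rw [div_eq_inv_mul, mul_smul, eq_inv_smul_iff₀ hee, sub_smul, sub_smul]
          linear_combination (norm := module) he
    have hU4 : U.card ≤ 4 := by
      have h1 := (hBp u huB).2.2
      have h2 := (hBp x hx).2.2
      have : U.card * U.card ≤ 4 * U.card := le_trans (Nat.mul_le_mul h1 h2) (by nlinarith)
      have hpos : 0 < U.card := by rw [hm]; exact pow_pos (by norm_num) _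
      exact Nat.le_of_mul_le_mul_right this hpos
    have hB3 : B.card ≤ 3 * w := by
      have hsub : B ⊆ ((U.erase 0) ×ˢ (Finset.univ.erase (0 : F))).image fun p => p.2 • p.1 := by
        intro y hy
        obtain ⟨hy0, -, hy2⟩ := hBp y hy
        have hK1 : 1 < (K y).card := by
          have : 2 < U.card := by
            rw [Finset.two_lt_card_iff]
            refine ⟨0, f, f', ?_, ?_, ?_, hf.symm, fun h0 => hne 0 (by rw [zero_smul]; exact h0.symm),
              fun h0 => hne 1 (by rw [one_smul]; exact h0.symm)⟩ <;> simp [hU, Ela.zero a, hE, hE']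
          omega
        obtain ⟨z, hz, hz0⟩ := Finset.exists_mem_ne hK1 0
        obtain ⟨hzU, c, rfl⟩ := Finset.mem_filter.1 hz
        have hc : c ≠ 0 := fun h0 => hz0 (by rw [h0, zero_smul])
        exact Finset.mem_image.2 ⟨(c • y, c⁻¹), Finset.mem_product.2 ⟨Finset.mem_erase.2 ⟨hz0, hzU⟩,
          Finset.mem_erase.2 ⟨inv_ne_zero hc, Finset.mem_univ _⟩⟩,
          by rw [smul_smul, inv_mul_cancel₀ hc, one_smul]⟩
      refine (Finset.card_le_card hsub).trans (Finset.card_image_le.trans ?_)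
      rw [Finset.card_product, Finset.card_erase_of_mem (Finset.mem_univ _), Finset.card_univ, ← hq, ← hw]
      have hUe := Finset.card_erase_of_mem (s := U) (a := 0) (by simp [hU, Ela.zero a])
      exact Nat.mul_le_mul_right w (by omega)
    rw [hBc, mul_comm 3] at hB3
    have := Nat.le_of_mul_le_mul_left hB3 hw0
    omega
  have hval : ∀ u, u ≠ 0 → xp M a u = 0 ∨ xp M a u = 3 ∨ ∃ i, xp M a u = 4 * i + 1 := by
    intro u hu
    rcases Nat.eq_zero_or_pos (xp M a u) with h0 | h0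
    · exact Or.inl h0
    obtain ⟨x, hx⟩ : ((perp a).filter fun x => x ∈ orb C u).Nonempty := Finset.card_pos.1
      (by rw [card_orb_perp C hC ha hu, ← hq, ← hw]; exact mul_pos hw0 h0)
    obtain ⟨h1, h2⟩ := Finset.mem_filter.1 hx
    obtain ⟨hx0, hxa⟩ := mem_perp_iff.1 h1
    rw [← xp_orb C h2]
    obtain ⟨t, ht⟩ := hodd x hx0 hxa
    rcases Nat.even_or_odd t with ⟨i, hi⟩ | ⟨i, hi⟩
    · exact Or.inr (Or.inr ⟨i, by omega⟩)
    · exact Or.inr (Or.inl (hthree x hx0 hxa (by omega)))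
  obtain ⟨f₂, f₃, hf₂, hf₃, e1, e2⟩ := three C hC hd ha hf
  exact arith_false hq16.1 hq16.2 e1 e2 (hval f hf) (hval f₂ hf₂) (hval f₃ hf₃)

end Two

section Duality

/-- The contragredient. -/
def dualHom : GL (Fin 3) F →* GL (Fin 3) F where
  toFun g :=
    { val := ((g⁻¹ : GL (Fin 3) F) : Matrix (Fin 3) (Fin 3) F)ᵀ
      inv := (g : Matrix (Fin 3) (Fin 3) F)ᵀ
      val_inv := by rw [← transpose_mul, ← Units.val_mul, mul_inv_cancel, Units.val_one, transpose_one]
      inv_val := by rw [← transpose_mul, ← Units.val_mul, inv_mul_cancel, Units.val_one, transpose_one] }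
  map_one' := Units.ext (by simp)
  map_mul' g h := Units.ext (by simp [_root_.mul_inv_rev, transpose_mul])

theorem dualHom_val (g : GL (Fin 3) F) :
    (dualHom g : Matrix (Fin 3) (Fin 3) F) = ((g⁻¹ : GL (Fin 3) F) : Matrix (Fin 3) (Fin 3) F)ᵀ := rfl

theorem dualHom_dualHom (g : GL (Fin 3) F) : dualHom (dualHom g) = g := Units.ext (by
  change (((dualHom g)⁻¹ : GL (Fin 3) F) : Matrix (Fin 3) (Fin 3) F)ᵀ = _
  rw [← map_inv, dualHom_val, inv_inv, transpose_transpose])

theorem map_dual_dual (M : Subgroup (GL (Fin 3) F)) : (M.map dualHom).map dualHom = M := by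
  rw [Subgroup.map_map, show (dualHom (F := F)).comp dualHom = MonoidHom.id _ from MonoidHom.ext dualHom_dualHom,
    Subgroup.map_id]

theorem Ela.dual {f a : Fin 3 → F} (h : Ela M f a) : Ela (M.map dualHom) a f := by
  obtain ⟨h1, g, hg, e⟩ := h.neg
  obtain ⟨h0, -⟩ := h
  refine ⟨by rw [dotProduct_comm]; exact h0, dualHom g, Subgroup.mem_map_of_mem _ hg, ?_⟩
  have einv : ((g⁻¹ : GL (Fin 3) F) : Matrix (Fin 3) (Fin 3) F) = 1 + vecMulVec a f :=
    Units.inv_eq_of_mul_eq_one_right (by rw [e, tr_mul h1, neg_add_cancel, vecMulVec_zero, add_zero])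
  rw [dualHom_val, einv, transpose_add, transpose_one, transpose_vecMulVec]

theorem Ela.of_dual {f a : Fin 3 → F} (h : Ela (M.map dualHom) a f) : Ela M f a := by
  have := h.dual
  rwa [map_dual_dual] at this

/-- The dual covering group. -/
noncomputable def Cover.dual (C : Cover M) : Cover (M.map dualHom) where
  G := C.G.map dualHom
  d := C.d
  hd := C.hd
  d_dvd := C.d_dvd
  card := by
    rw [Subgroup.card_map_of_injective (Function.Involutive.injective dualHom_dualHom)]
    exact C.card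
  scal c hc := by
    obtain ⟨g, hg, e⟩ := C.scal c⁻¹ (inv_ne_zero hc)
    refine ⟨dualHom g, Subgroup.mem_map_of_mem _ hg, ?_⟩
    have : ((g⁻¹ : GL (Fin 3) F) : Matrix (Fin 3) (Fin 3) F) = c • (1 : Matrix (Fin 3) (Fin 3) F) :=
      Units.inv_eq_of_mul_eq_one_right (by
        rw [e, Matrix.smul_mul, Matrix.one_mul, smul_smul, inv_mul_cancel₀ hc, one_smul])
    rw [dualHom_val, this, transpose_smul, transpose_one]
  free g hg v hv h := by
    obtain ⟨x, hx, rfl⟩ := hg
    rw [dualHom_val, mulVec_transpose] at h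
    have := C.free' _ (C.G.inv_mem hx) v hv h
    rw [inv_eq_one.1 this, map_one]
  free' g hg f hf h := by
    obtain ⟨x, hx, rfl⟩ := hg
    rw [dualHom_val, vecMul_transpose] at h
    have := C.free _ (C.G.inv_mem hx) f hf h
    rw [inv_eq_one.1 this, map_one]
  mem g hg := by
    obtain ⟨x, hx, rfl⟩ := hg
    obtain ⟨c, m, hm, hc, e⟩ := C.mem x hx
    refine ⟨c⁻¹, dualHom m, Subgroup.mem_map_of_mem _ hm, inv_ne_zero hc, ?_⟩
    have : ((m⁻¹ : GL (Fin 3) F) : Matrix (Fin 3) (Fin 3) F) =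
        c⁻¹ • ((x⁻¹ : GL (Fin 3) F) : Matrix (Fin 3) (Fin 3) F) :=
      Units.inv_eq_of_mul_eq_one_right (by
        rw [e, Matrix.smul_mul, Matrix.mul_smul, smul_smul, mul_inv_cancel₀ hc, one_smul, ← Units.val_mul,
          mul_inv_cancel, Units.val_one])
    rw [dualHom_val, dualHom_val, this, transpose_smul]

open Classical in
/-- If every point has two axes, some line has two centres. -/
theorem exists_two_centres (h : ∀ a : Fin 3 → F, a ≠ 0 → Two M a) :
    ∃ f b b' : Fin 3 → F, f ≠ 0 ∧ b ≠ 0 ∧ Ela M f b ∧ Ela M f b' ∧ ∀ c : F, b' ≠ c • b := by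
  by_contra hno
  push Not at hno
  set q := Fintype.card F with hq
  set Z := Finset.univ.erase (0 : Fin 3 → F) with hZ
  let R : (Fin 3 → F) → (Fin 3 → F) → Prop := fun v u => ∃ c : F, c ≠ 0 ∧ Ela M (c • u) v
  have hlo : ∀ v ∈ Z, 2 * (q - 1) ≤ (Z.bipartiteAbove R v).card := by
    intro v hv
    obtain ⟨f, f', hf, h1, h2, hne⟩ := h v (Finset.mem_erase.1 hv).1
    have hf' : f' ≠ 0 := fun h0 => hne 0 (by rw [h0, zero_smul])
    set L := fun u : Fin 3 → F => Finset.univ.filter fun x : Fin 3 → F => x ≠ 0 ∧ ∃ c : F, x = c • u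
    have hd : Disjoint (L f) (L f') := Finset.disjoint_left.2 fun x hx hx' => by
      obtain ⟨-, hx0, c, rfl⟩ := Finset.mem_filter.1 hx
      obtain ⟨-, -, c', hc'⟩ := Finset.mem_filter.1 hx'
      have hc0 : c' ≠ 0 := fun h0 => hx0 (by rw [hc', h0, zero_smul])
      exact hne (c'⁻¹ * c) (by rw [← smul_smul, hc', smul_smul, inv_mul_cancel₀ hc0, one_smul])
    have hsub : ∀ u, Ela M u v → L u ⊆ Z.bipartiteAbove R v := fun u hu x hx => by
      obtain ⟨-, hx0, c, rfl⟩ := Finset.mem_filter.1 hx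
      have hc : c ≠ 0 := fun h0 => hx0 (by rw [h0, zero_smul])
      exact Finset.mem_filter.2 ⟨Finset.mem_erase.2 ⟨hx0, Finset.mem_univ _⟩, c⁻¹, inv_ne_zero hc,
        by rwa [smul_smul, inv_mul_cancel₀ hc, one_smul]⟩
    have := Finset.card_le_card (Finset.union_subset (hsub f h1) (hsub f' h2))
    rw [Finset.card_union_of_disjoint hd, card_line hf, card_line hf', ← hq] at this
    omega
  have hhi : ∀ u ∈ Z, (Z.bipartiteBelow R u).card ≤ q - 1 := by
    intro u hu
    rcases (Z.bipartiteBelow R u).eq_empty_or_nonempty with h0 | ⟨v, hv⟩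
    · rw [h0, Finset.card_empty]; exact Nat.zero_le _
    obtain ⟨hvZ, c, hc, hE⟩ := Finset.mem_filter.1 hv
    have hv0 := (Finset.mem_erase.1 hvZ).1
    rw [← card_line hv0]
    refine Finset.card_le_card fun v' hv' => ?_
    obtain ⟨hv'Z, c', hc', hE'⟩ := Finset.mem_filter.1 hv'
    obtain ⟨e, he⟩ := hno u (c • v) (c' • v') (Finset.mem_erase.1 hu).1 (smul_ne_zero hc hv0)
      ((Ela.smul_iff hc).2 hE) ((Ela.smul_iff hc').2 hE')
    exact Finset.mem_filter.2 ⟨Finset.mem_univ _, (Finset.mem_erase.1 hv'Z).1, c'⁻¹ * (e * c),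
      by rw [← smul_smul, ← smul_smul e, ← he, smul_smul, inv_mul_cancel₀ hc', one_smul]⟩
  have h1 := Finset.card_nsmul_le_sum _ _ _ hlo
  have h2 := Finset.sum_le_card_nsmul _ _ _ hhi
  rw [← Finset.sum_card_bipartiteAbove_eq_sum_card_bipartiteBelow R] at h2
  have hZ0 : 0 < Z.card := Finset.card_pos.2 ⟨Pi.single 0 1, Finset.mem_erase.2 ⟨by simp, Finset.mem_univ _⟩⟩
  have hw : 0 < q - 1 := by have := q_pos (F := F); omega
  have h3 := le_trans h1 h2
  simp only [smul_eq_mul] at h3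
  have := Nat.le_of_mul_le_mul_left h3 hZ0
  omega

end Duality

/-- An elation gives transitivity on points and two centres on every axis. -/
theorem transitive_two {p : ℕ} [Fact p.Prime] [CharP F p] (C : Cover M) (h4 : Fintype.card F ≠ 4)
    {f : Fin 3 → F} (ha : a ≠ 0) (hf : f ≠ 0) (h : Ela M f a) :
    (∀ u v : Fin 3 → F, u ≠ 0 → v ≠ 0 →
      ∃ g ∈ M, ∃ c : F, (g : Matrix (Fin 3) (Fin 3) F) *ᵥ u = c • v) ∧
    ∀ u : Fin 3 → F, u ≠ 0 → ∃ b b', b ≠ 0 ∧ (∀ c : F, b' ≠ c • b) ∧ Ela M u b ∧ Ela M u b' := by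
  -- every point has two axes as soon as one has, and dually
  have up : ∀ {M' : Subgroup (GL (Fin 3) F)}, Cover M' → ∀ b, b ≠ 0 → Two M' b → ∀ v, v ≠ 0 → Two M' v :=
    fun C' b hb hT v hv => hT.of_mem (all_of_two (p := p) C' h4 hb hT v hv)
  have hflip : ∀ {M' : Subgroup (GL (Fin 3) F)}, (∀ v, v ≠ 0 → Two M' v) →
      ∃ b, b ≠ 0 ∧ Two (M'.map dualHom) b := fun {M'} hall => by
    obtain ⟨u, b, b', hu, hb, h1, h2, hne⟩ := exists_two_centres hall
    exact ⟨u, hu, b, b', hb, h1.dual, h2.dual, hne⟩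
  have hTwo : ∃ b, b ≠ 0 ∧ Two M b := by
    by_contra hno
    push Not at hno
    refine false_of_unique (p := p) C h4 ha hf h (fun u u' b hu hb h1 h2 => ?_) fun u b b' hu hb h1 h2 => ?_
    · by_contra hc
      push Not at hc
      exact hno b hb ⟨u, u', hu, h1, h2, hc⟩
    · by_contra hc
      push Not at hc
      obtain ⟨x, hx, hT⟩ := hflip (up C.dual u hu ⟨b, b', hb, h1.dual, h2.dual, hc⟩)
      rw [map_dual_dual] at hT
      exact hno x hx hT
  obtain ⟨b, hb, hT⟩ := hTwo
  refine ⟨fun u v hu hv => ?_, fun u hu => ?_⟩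
  · obtain ⟨-, g, hg, c, hgu⟩ := mem_pts.1 (all_of_two (p := p) C h4 hb hT u hu)
    obtain ⟨-, g', hg', c', hgv⟩ := mem_pts.1 (all_of_two (p := p) C h4 hb hT v hv)
    have hc' : c' ≠ 0 := fun h0 => hv (by rw [← hgv, h0, zero_smul])
    refine ⟨g' * g⁻¹, M.mul_mem hg' (M.inv_mem hg), c * c'⁻¹, ?_⟩
    rw [← hgu, ← hgv, mulVec_smul, Units.val_mul, ← mulVec_mulVec, glv_inv, smul_smul, mul_assoc,
      inv_mul_cancel₀ hc', mul_one]
  · obtain ⟨x, hx, hT'⟩ := hflip (up C b hb hT)
    obtain ⟨y, y', hy, h1, h2, hne⟩ := up C.dual x hx hT' u hu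
    exact ⟨y, y', hy, hne, h1.of_dual, h2.of_dual⟩

end Cfsg.Agent.H99.SingerElation
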