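import Mathlib
import Cfsg.Prelude.Def_GeometricClasses

/-!
Incidence counts for a subgroup of `GL₃` that contains a transvection and, up to scalars, a group that acts freely
with one or three orbits on non-zero vectors and on non-zero functionals: it is transitive on points and every
point is the centre of elations with two different axes, or the dual holds.
-/

set_option autoImplicit false
set_option linter.unusedSectionVars false

namespace Cfsg.Agent.H99.SingerElation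

open Matrix

variable {F : Type*} [Field F]

/-- The transvection `v ↦ v + (f ⬝ᵥ v) • a` lies in `M`. -/
def Ela (M : Subgroup (GL (Fin 3) F)) (f a : Fin 3 → F) : Prop :=
  f ⬝ᵥ a = 0 ∧ ∃ g ∈ M, (g : Matrix (Fin 3) (Fin 3) F) = 1 + vecMulVec a f

theorem tr_mulVec (f a v : Fin 3 → F) :
    (1 + vecMulVec a f : Matrix (Fin 3) (Fin 3) F) *ᵥ v = v + (f ⬝ᵥ v) • a := by
  rw [add_mulVec, one_mulVec, vecMulVec_mulVec, op_smul_eq_smul]

theorem mat_ext {A B : Matrix (Fin 3) (Fin 3) F} (h : ∀ v, A *ᵥ v = B *ᵥ v) : A = B :=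
  Matrix.ext_of_mulVec_single fun _ => h _

theorem tr_mul {f f' a : Fin 3 → F} (h : f ⬝ᵥ a = 0) :
    (1 + vecMulVec a f : Matrix (Fin 3) (Fin 3) F) * (1 + vecMulVec a f') = 1 + vecMulVec a (f + f') := by
  refine mat_ext fun v => ?_
  rw [← mulVec_mulVec, tr_mulVec, tr_mulVec, tr_mulVec, dotProduct_add, dotProduct_smul, h, smul_zero, add_zero,
    add_dotProduct]
  module

theorem tr_inj {f f' a : Fin 3 → F} (ha : a ≠ 0)
    (h : (1 + vecMulVec a f : Matrix (Fin 3) (Fin 3) F) = 1 + vecMulVec a f') : f = f' := by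
  obtain ⟨i, hi⟩ := Function.ne_iff.1 ha
  funext j
  have h' : vecMulVec a f = vecMulVec a f' := add_left_cancel h
  have := congrFun (congrFun h' i) j
  simp only [vecMulVec_apply] at this
  exact mul_left_cancel₀ hi this

theorem glv_inv (g : GL (Fin 3) F) (v : Fin 3 → F) :
    ((g⁻¹ : GL (Fin 3) F) : Matrix (Fin 3) (Fin 3) F) *ᵥ ((g : Matrix (Fin 3) (Fin 3) F) *ᵥ v) = v := by
  rw [mulVec_mulVec, ← Units.val_mul, inv_mul_cancel, Units.val_one, one_mulVec]

theorem inv_glv (g : GL (Fin 3) F) (v : Fin 3 → F) :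
    (g : Matrix (Fin 3) (Fin 3) F) *ᵥ (((g⁻¹ : GL (Fin 3) F) : Matrix (Fin 3) (Fin 3) F) *ᵥ v) = v := by
  rw [mulVec_mulVec, ← Units.val_mul, mul_inv_cancel, Units.val_one, one_mulVec]

theorem glv_ne_zero (g : GL (Fin 3) F) {v : Fin 3 → F} (hv : v ≠ 0) :
    (g : Matrix (Fin 3) (Fin 3) F) *ᵥ v ≠ 0 := fun h => hv (by rw [← glv_inv g v, h, mulVec_zero])

theorem glv_dual_ne_zero (g : GL (Fin 3) F) {f : Fin 3 → F} (hf : f ≠ 0) :
    f ᵥ* (g : Matrix (Fin 3) (Fin 3) F) ≠ 0 := fun h => hf (by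
  rw [← vecMul_one f, ← Units.val_one, ← mul_inv_cancel g, Units.val_mul, ← vecMul_vecMul, h, zero_vecMul])

variable {M : Subgroup (GL (Fin 3) F)}

theorem Ela.zero (a : Fin 3 → F) : Ela M 0 a := by
  refine ⟨zero_dotProduct a, 1, M.one_mem, ?_⟩
  rw [Units.val_one, vecMulVec_zero, add_zero]

theorem Ela.add {f f' a : Fin 3 → F} (h : Ela M f a) (h' : Ela M f' a) : Ela M (f + f') a := by
  obtain ⟨h1, g, hg, hge⟩ := h
  obtain ⟨h2, g', hg', hge'⟩ := h'
  exact ⟨by rw [add_dotProduct, h1, h2, add_zero], g * g', M.mul_mem hg hg',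
    by rw [Units.val_mul, hge, hge', tr_mul h1]⟩

theorem Ela.neg {f a : Fin 3 → F} (h : Ela M f a) : Ela M (-f) a := by
  obtain ⟨h1, g, hg, hge⟩ := h
  refine ⟨by rw [neg_dotProduct, h1, neg_zero], g⁻¹, M.inv_mem hg, ?_⟩
  refine Units.inv_eq_of_mul_eq_one_right ?_
  rw [hge, tr_mul h1, add_neg_cancel, vecMulVec_zero, add_zero]

theorem Ela.smul_iff {f a : Fin 3 → F} {c : F} (hc : c ≠ 0) : Ela M f (c • a) ↔ Ela M (c • f) a := by
  have e : vecMulVec (c • a) f = vecMulVec a (c • f) := by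
    ext i j
    simp only [vecMulVec_apply, Pi.smul_apply, smul_eq_mul]
    ring
  rw [Ela, Ela, e, dotProduct_smul, smul_dotProduct, smul_eq_mul, mul_eq_zero, or_iff_right hc]

theorem Ela.conj {f a : Fin 3 → F} (h : Ela M f a) {g : GL (Fin 3) F} (hg : g ∈ M) :
    Ela M (f ᵥ* ((g⁻¹ : GL (Fin 3) F) : Matrix (Fin 3) (Fin 3) F)) ((g : Matrix (Fin 3) (Fin 3) F) *ᵥ a) := by
  obtain ⟨h1, m, hm, hme⟩ := h
  refine ⟨by rw [← dotProduct_mulVec, glv_inv, h1], g * m * g⁻¹, M.mul_mem (M.mul_mem hg hm) (M.inv_mem hg),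
    mat_ext fun v => ?_⟩
  rw [Units.val_mul, Units.val_mul, hme, ← mulVec_mulVec, ← mulVec_mulVec, tr_mulVec, tr_mulVec, mulVec_add,
    mulVec_smul, inv_glv, dotProduct_mulVec]

/-- A centre with two different axes. -/
def Two (M : Subgroup (GL (Fin 3) F)) (a : Fin 3 → F) : Prop :=
  ∃ f f' : Fin 3 → F, f ≠ 0 ∧ Ela M f a ∧ Ela M f' a ∧ ∀ c : F, f' ≠ c • f

/-- Two independent vectors and two functionals. -/
theorem perp_two {a v f u : Fin 3 → F} (ha : a ≠ 0) (hv : ∀ c : F, v ≠ c • a) (hf : f ≠ 0) (hfa : f ⬝ᵥ a = 0)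
    (hfv : f ⬝ᵥ v = 0) (hua : u ⬝ᵥ a = 0) (huv : u ⬝ᵥ v = 0) : ∃ c : F, u = c • f := by
  obtain ⟨i, hi⟩ := Function.ne_iff.1 hf
  set w : Fin 3 → F := Pi.single i 1 with hw
  have hfw : f ⬝ᵥ w = f i := by simp [hw]
  have hli : LinearIndependent F ![a, v, w] := by
    rw [Fintype.linearIndependent_iff]
    intro g hg
    simp only [Fin.sum_univ_three, cons_val_zero, cons_val_one, cons_val] at hg
    have e2 : g 2 = 0 := by
      have := congrArg (f ⬝ᵥ ·) hg
      simp [hfa, hfv, hfw, hi] at this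
      exact this.resolve_right hi
    rw [e2, zero_smul, add_zero] at hg
    have e1 : g 1 = 0 := by
      by_contra h1
      refine hv (-(g 1)⁻¹ * g 0) ?_
      rw [eq_comm, mul_smul, eq_neg_of_add_eq_zero_left hg, smul_neg, neg_smul, neg_neg, smul_smul,
        inv_mul_cancel₀ h1, one_smul]
    rw [e1, zero_smul, add_zero, smul_eq_zero] at hg
    intro j
    fin_cases j
    exacts [hg.resolve_right ha, e1, e2]
  refine ⟨u ⬝ᵥ w / f i, ?_⟩
  let Ψ : (Fin 3 → F) → ((Fin 3 → F) →ₗ[F] F) := fun x =>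
    { toFun := fun y => x ⬝ᵥ y
      map_add' := fun y z => dotProduct_add _ _ _
      map_smul' := fun c y => dotProduct_smul _ _ _ }
  have hΨ : Ψ u = Ψ ((u ⬝ᵥ w / f i) • f) := by
    refine (basisOfLinearIndependentOfCardEqFinrank hli (by simp)).ext fun j => ?_
    fin_cases j <;> simp [Ψ, smul_dotProduct, hfa, hfv, hua, huv, hfw, div_mul_cancel₀ _ hi]
  funext j
  have := LinearMap.congr_fun hΨ (Pi.single j 1)
  simpa [Ψ, smul_dotProduct] using this

section Action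

/-- A group all of whose stabilisers have the same order. -/
theorem stab_dvd {G : Type*} [Group G] [Finite G] {X : Type*} [Finite X] [MulAction G X] (k : ℕ)
    (h : ∀ x : X, Nat.card (MulAction.stabilizer G x) = k) : Nat.card G ∣ k * Nat.card X := by
  let e : (Σ g : G, MulAction.fixedBy X g) ≃ Σ x : X, MulAction.stabilizer G x :=
    { toFun := fun p => ⟨p.2.1, p.1, p.2.2⟩
      invFun := fun p => ⟨p.2.1, p.1, p.2.2⟩
      left_inv := fun _ => rfl
      right_inv := fun _ => rfl }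
  have h1 := Nat.card_congr (e.symm.trans (MulAction.sigmaFixedByEquivOrbitsProdGroup G X))
  cases nonempty_fintype X
  rw [Nat.card_sigma, Finset.sum_congr rfl (fun x _ => h x), Finset.sum_const, smul_eq_mul, Nat.card_prod,
    Finset.card_univ, ← Nat.card_eq_fintype_card] at h1
  exact ⟨Nat.card (Quotient (MulAction.orbitRel G X)), by rw [mul_comm, h1, mul_comm]⟩

variable [Fintype F]

/-- The action of a subgroup on a stable set of vectors. -/
@[instance_reducible]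
def setAction (P : Subgroup (GL (Fin 3) F)) (X : Finset (Fin 3 → F))
    (hinv : ∀ g ∈ P, ∀ v ∈ X, (g : Matrix (Fin 3) (Fin 3) F) *ᵥ v ∈ X) : MulAction ↥P ↥X where
  smul g v := ⟨((g : GL (Fin 3) F) : Matrix (Fin 3) (Fin 3) F) *ᵥ v.1, hinv g g.2 v v.2⟩
  one_smul v := Subtype.ext (one_mulVec _)
  mul_smul g h v := Subtype.ext (by
    change ((↑(g * h) : GL (Fin 3) F) : Matrix (Fin 3) (Fin 3) F) *ᵥ v.1 =
      ((g : GL (Fin 3) F) : Matrix (Fin 3) (Fin 3) F) *ᵥ (((h : GL (Fin 3) F) : Matrix (Fin 3) (Fin 3) F) *ᵥ v.1)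
    rw [Subgroup.coe_mul, Units.val_mul, mulVec_mulVec])

theorem vec_stab_dvd (P : Subgroup (GL (Fin 3) F)) (X : Finset (Fin 3 → F))
    (hinv : ∀ g ∈ P, ∀ v ∈ X, (g : Matrix (Fin 3) (Fin 3) F) *ᵥ v ∈ X) (k : ℕ)
    (hk : ∀ v ∈ X, Nat.card {g : GL (Fin 3) F // g ∈ P ∧ (g : Matrix (Fin 3) (Fin 3) F) *ᵥ v = v} = k) :
    Nat.card P ∣ k * X.card := by
  letI := setAction P X hinv
  rw [← Nat.card_eq_finsetCard X]
  refine stab_dvd k fun x => ?_
  rw [← hk x.1 x.2]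
  refine Nat.card_congr
    { toFun := fun g => ⟨g.1.1, g.1.2, congrArg Subtype.val g.2⟩
      invFun := fun g => ⟨⟨g.1, g.2.1⟩, Subtype.ext g.2.2⟩
      left_inv := fun _ => rfl
      right_inv := fun _ => rfl }

theorem free_dvd (P : Subgroup (GL (Fin 3) F)) (X : Finset (Fin 3 → F))
    (hinv : ∀ g ∈ P, ∀ v ∈ X, (g : Matrix (Fin 3) (Fin 3) F) *ᵥ v ∈ X)
    (hfree : ∀ v ∈ X, ∀ g ∈ P, (g : Matrix (Fin 3) (Fin 3) F) *ᵥ v = v → g = 1) : Nat.card P ∣ X.card := by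
  have := vec_stab_dvd P X hinv 1 fun v hv => by
    rw [Nat.card_eq_one_iff_unique]
    exact ⟨⟨fun x y => Subtype.ext ((hfree v hv _ x.2.1 x.2.2).trans (hfree v hv _ y.2.1 y.2.2).symm)⟩,
      ⟨⟨1, P.one_mem, one_mulVec v⟩⟩⟩
  rwa [one_mul] at this

end Action

section Setting

variable [Fintype F]

open Classical in
/-- The point orbit, as a set of vectors. -/
noncomputable def pts (M : Subgroup (GL (Fin 3) F)) (a : Fin 3 → F) : Finset (Fin 3 → F) :=
  Finset.univ.filter fun v => v ≠ 0 ∧ ∃ g ∈ M, ∃ c : F, c • ((g : Matrix (Fin 3) (Fin 3) F) *ᵥ a) = v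

theorem mem_pts {a v : Fin 3 → F} :
    v ∈ pts M a ↔ v ≠ 0 ∧ ∃ g ∈ M, ∃ c : F, c • ((g : Matrix (Fin 3) (Fin 3) F) *ᵥ a) = v := by
  simp [pts]

theorem self_mem_pts {a : Fin 3 → F} (ha : a ≠ 0) : a ∈ pts M a :=
  mem_pts.2 ⟨ha, 1, M.one_mem, 1, by rw [Units.val_one, one_mulVec, one_smul]⟩

theorem smul_mem_pts {a v : Fin 3 → F} (h : v ∈ pts M a) {c : F} (hc : c ≠ 0) : c • v ∈ pts M a := by
  obtain ⟨hv, g, hg, e, rfl⟩ := mem_pts.1 h
  exact mem_pts.2 ⟨smul_ne_zero hc hv, g, hg, c * e, by rw [smul_smul]⟩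

theorem mul_mem_pts {a v : Fin 3 → F} (h : v ∈ pts M a) {g : GL (Fin 3) F} (hg : g ∈ M) :
    (g : Matrix (Fin 3) (Fin 3) F) *ᵥ v ∈ pts M a := by
  obtain ⟨hv, g', hg', e, rfl⟩ := mem_pts.1 h
  refine mem_pts.2 ⟨glv_ne_zero g hv, g * g', M.mul_mem hg hg', e, ?_⟩
  rw [mulVec_smul, Units.val_mul, mulVec_mulVec]

theorem Two.of_mem {a v : Fin 3 → F} (h : Two M a) (hv : v ∈ pts M a) : Two M v := by
  obtain ⟨hv0, g, hg, c, rfl⟩ := mem_pts.1 hv
  have hc : c ≠ 0 := fun h0 => hv0 (by rw [h0, zero_smul])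
  obtain ⟨f, f', hf, h1, h2, hne⟩ := h
  have key : ∀ {f : Fin 3 → F}, Ela M f a → Ela M (c⁻¹ • (f ᵥ* ((g⁻¹ : GL (Fin 3) F) : Matrix (Fin 3) (Fin 3) F)))
      (c • ((g : Matrix (Fin 3) (Fin 3) F) *ᵥ a)) := fun {f} hf => by
    rw [Ela.smul_iff hc, smul_smul, mul_inv_cancel₀ hc, one_smul]
    exact hf.conj hg
  refine ⟨_, _, smul_ne_zero (inv_ne_zero hc) (glv_dual_ne_zero g⁻¹ hf), key h1, key h2, fun e he => hne e ?_⟩
  rw [smul_comm e] at he
  have h3 := congrArg (· ᵥ* (g : Matrix (Fin 3) (Fin 3) F)) (smul_right_injective _ (inv_ne_zero hc) he)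
  simpa [smul_vecMul, vecMul_vecMul, ← Units.val_mul] using h3

/-- The group acting freely. -/
structure Cover (M : Subgroup (GL (Fin 3) F)) where
  G : Subgroup (GL (Fin 3) F)
  d : ℕ
  hd : d = 1 ∨ d = 3
  d_dvd : d ∣ Fintype.card F - 1
  card : d * Nat.card G = Fintype.card F ^ 3 - 1
  scal : ∀ c : F, c ≠ 0 → ∃ g ∈ G, (g : Matrix (Fin 3) (Fin 3) F) = c • (1 : Matrix (Fin 3) (Fin 3) F)
  free : ∀ g ∈ G, ∀ v : Fin 3 → F, v ≠ 0 → (g : Matrix (Fin 3) (Fin 3) F) *ᵥ v = v → g = 1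
  free' : ∀ g ∈ G, ∀ f : Fin 3 → F, f ≠ 0 → f ᵥ* (g : Matrix (Fin 3) (Fin 3) F) = f → g = 1
  mem : ∀ g ∈ G, ∃ c : F, ∃ m ∈ M, c ≠ 0 ∧ (m : Matrix (Fin 3) (Fin 3) F) = c • (g : Matrix (Fin 3) (Fin 3) F)

variable {a : Fin 3 → F}

theorem Cover.mul_mem (C : Cover M) {g : GL (Fin 3) F} (hg : g ∈ C.G) {v : Fin 3 → F} (hv : v ∈ pts M a) :
    (g : Matrix (Fin 3) (Fin 3) F) *ᵥ v ∈ pts M a := by
  obtain ⟨c, m, hm, hc, he⟩ := C.mem g hg
  have := smul_mem_pts (mul_mem_pts hv hm) (inv_ne_zero hc)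
  rwa [he, smul_mulVec, smul_smul, inv_mul_cancel₀ hc, one_smul] at this

theorem card_units_eq (F : Type*) [Field F] [Fintype F] : Nat.card Fˣ = Fintype.card F - 1 := by
  rw [Nat.card_units, Nat.card_eq_fintype_card]

open Classical in
/-- A scalar closed set of non-zero vectors has order divisible by `q - 1`. -/
theorem scal_dvd (X : Finset (Fin 3 → F)) (h0 : (0 : Fin 3 → F) ∉ X) (hX : ∀ v ∈ X, ∀ c : F, c ≠ 0 → c • v ∈ X) :
    Fintype.card F - 1 ∣ X.card := by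
  set φ : Fˣ →* GL (Fin 3) F := Units.map (algebraMap F (Matrix (Fin 3) (Fin 3) F)).toMonoidHom with hφ
  have hval : ∀ c : Fˣ, (φ c : Matrix (Fin 3) (Fin 3) F) = (c : F) • (1 : Matrix (Fin 3) (Fin 3) F) := fun c =>
    Algebra.algebraMap_eq_smul_one _
  have hinj : Function.Injective φ := fun c c' h => Units.ext (by
    have := congrFun (congrFun ((hval c).symm.trans ((congrArg Units.val h).trans (hval c'))) 0) 0
    simpa using this)
  rw [← card_units_eq F, Nat.card_congr (Equiv.ofInjective φ hinj)]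
  refine free_dvd φ.range X ?_ ?_
  · rintro - ⟨c, rfl⟩ v hv
    rw [hval, smul_mulVec, one_mulVec]
    exact hX v hv c c.ne_zero
  · rintro v hv - ⟨c, rfl⟩ h
    rw [hval, smul_mulVec, one_mulVec] at h
    have hv0 : v ≠ 0 := fun e => h0 (e ▸ hv)
    obtain rfl : c = 1 := Units.ext (smul_left_injective F hv0 (h.trans (one_smul F v).symm))
    exact map_one φ

theorem card_vec : Fintype.card (Fin 3 → F) = Fintype.card F ^ 3 := by
  rw [Fintype.card_fun, Fintype.card_fin]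

open Classical in
theorem card_line (ha : a ≠ 0) :
    (Finset.univ.filter fun v : Fin 3 → F => v ≠ 0 ∧ ∃ c : F, v = c • a).card = Fintype.card F - 1 := by
  rw [← Finset.card_univ, ← Finset.card_erase_of_mem (Finset.mem_univ (0 : F))]
  refine (Finset.card_bij (fun c _ => c • a) ?_ ?_ ?_).symm
  · intro c hc
    rw [Finset.mem_erase] at hc
    exact Finset.mem_filter.2 ⟨Finset.mem_univ _, smul_ne_zero hc.1 ha, c, rfl⟩
  · intro c _ c' _ h
    exact smul_left_injective F ha h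
  · intro v hv
    obtain ⟨-, hv0, c, rfl⟩ := Finset.mem_filter.1 hv
    exact ⟨c, Finset.mem_erase.2 ⟨fun h => hv0 (by rw [h, zero_smul]), Finset.mem_univ c⟩, rfl⟩

/-- The subgroup of elations with given centre. -/
def transG (M : Subgroup (GL (Fin 3) F)) (a : Fin 3 → F) : Subgroup (GL (Fin 3) F) where
  carrier := {g | g ∈ M ∧ ∃ f, f ⬝ᵥ a = 0 ∧ (g : Matrix (Fin 3) (Fin 3) F) = 1 + vecMulVec a f}
  one_mem' := ⟨M.one_mem, 0, zero_dotProduct a, by rw [Units.val_one, vecMulVec_zero, add_zero]⟩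
  mul_mem' := by
    rintro g g' ⟨hg, f, hf, e⟩ ⟨hg', f', hf', e'⟩
    exact ⟨M.mul_mem hg hg', f + f', by rw [add_dotProduct, hf, hf', add_zero],
      by rw [Units.val_mul, e, e', tr_mul hf]⟩
  inv_mem' := by
    rintro g ⟨hg, f, hf, e⟩
    refine ⟨M.inv_mem hg, -f, by rw [neg_dotProduct, hf, neg_zero], Units.inv_eq_of_mul_eq_one_right ?_⟩
    rw [e, tr_mul hf, add_neg_cancel, vecMulVec_zero, add_zero]

theorem transG_pow {p : ℕ} [CharP F p] {g : GL (Fin 3) F} (hg : g ∈ transG M a) : g ^ p = 1 := by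
  obtain ⟨-, f, hf, e⟩ := hg
  have key : ∀ k : ℕ, ((g ^ k : GL (Fin 3) F) : Matrix (Fin 3) (Fin 3) F) = 1 + vecMulVec a ((k : F) • f) := by
    intro k
    induction k with
    | zero => simp
    | succ k ih =>
      rw [pow_succ', Units.val_mul, ih, e, tr_mul hf, Nat.cast_succ, add_smul, one_smul, add_comm f]
  refine Units.ext ?_
  rw [key, CharP.cast_eq_zero, zero_smul, vecMulVec_zero, add_zero, Units.val_one]

open Classical in
/-- Points moved by elations with centre `a` come in orbits of `p`-power order. -/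
theorem card_modEq_fixed {p : ℕ} [Fact p.Prime] [CharP F p] (a : Fin 3 → F) (b : Fin 3 → F) :
    (pts M b).card ≡ ((pts M b).filter fun v => ∀ f, Ela M f a → f ⬝ᵥ v = 0 ∨ a = 0).card [MOD p] := by
  set X := pts M b
  have hinv : ∀ g ∈ transG M a, ∀ v ∈ X, (g : Matrix (Fin 3) (Fin 3) F) *ᵥ v ∈ X :=
    fun g hg v hv => mul_mem_pts hv hg.1
  letI := setAction (transG M a) X hinv
  have hP : IsPGroup p ↥(transG M a) := fun g => ⟨1, by
    rw [pow_one]; exact Subtype.ext (by rw [SubmonoidClass.coe_pow]; exact transG_pow g.2)⟩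
  have h := hP.card_modEq_card_fixedPoints ↥X
  rw [Nat.card_eq_finsetCard] at h
  convert h using 1
  rw [← Nat.card_eq_finsetCard]
  refine Nat.card_congr
    { toFun := fun v => ⟨⟨v.1, (Finset.mem_filter.1 v.2).1⟩, fun g => Subtype.ext ?_⟩
      invFun := fun v => ⟨v.1.1, Finset.mem_filter.2 ⟨v.1.2, fun f hf => ?_⟩⟩
      left_inv := fun _ => rfl
      right_inv := fun _ => rfl }
  · obtain ⟨hgM, f, hf, e⟩ := g.2
    change ((g : GL (Fin 3) F) : Matrix (Fin 3) (Fin 3) F) *ᵥ v.1 = v.1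
    rw [e, tr_mulVec]
    rcases (Finset.mem_filter.1 v.2).2 f ⟨hf, g.1, hgM, e⟩ with h0 | h0 <;> simp [h0]
  · obtain ⟨hfa, g, hg, e⟩ := hf
    have := congrArg Subtype.val (v.2 ⟨g, hg, f, hfa, e⟩)
    change (g : Matrix (Fin 3) (Fin 3) F) *ᵥ v.1.1 = v.1.1 at this
    rw [e, tr_mulVec, add_eq_left, smul_eq_zero] at this
    exact this

open Classical in
/-- The elations with given centre correspond to their functionals. -/
theorem card_transG (ha : a ≠ 0) (Q : (Fin 3 → F) → Prop) :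
    Nat.card {g : GL (Fin 3) F // g ∈ transG M a ∧ ∃ f, Q f ∧ (g : Matrix (Fin 3) (Fin 3) F) = 1 + vecMulVec a f} =
      (Finset.univ.filter fun f => Ela M f a ∧ Q f).card := by
  rw [← Nat.card_eq_finsetCard]
  have hmem : ∀ f : ↥(Finset.univ.filter fun f => Ela M f a ∧ Q f), Ela M f.1 a ∧ Q f.1 :=
    fun f => (Finset.mem_filter.1 f.2).2
  let fn : ↥(Finset.univ.filter fun f => Ela M f a ∧ Q f) →
      {g : GL (Fin 3) F // g ∈ transG M a ∧ ∃ f, Q f ∧ (g : Matrix (Fin 3) (Fin 3) F) = 1 + vecMulVec a f} :=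
    fun f => ⟨(hmem f).1.2.choose, ⟨(hmem f).1.2.choose_spec.1, f.1, (hmem f).1.1, (hmem f).1.2.choose_spec.2⟩,
      f.1, (hmem f).2, (hmem f).1.2.choose_spec.2⟩
  refine (Nat.card_eq_of_bijective fn ⟨?_, ?_⟩).symm
  · intro f f' h
    have h3 : ((fn f).1 : Matrix (Fin 3) (Fin 3) F) = (fn f').1 := by rw [h]
    exact Subtype.ext (tr_inj ha ((hmem f).1.2.choose_spec.2.symm.trans (h3.trans (hmem f').1.2.choose_spec.2)))
  · rintro ⟨g, ⟨hg, f', hf', e'⟩, f, hQ, e⟩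
    obtain rfl : f = f' := tr_inj ha (e.symm.trans e')
    have hE : Ela M f a := ⟨hf', g, hg, e⟩
    refine ⟨⟨f, Finset.mem_filter.2 ⟨Finset.mem_univ f, hE, hQ⟩⟩, Subtype.ext (Units.ext ?_)⟩
    exact (hmem _).1.2.choose_spec.2.trans e.symm

end Setting

end Cfsg.Agent.H99.SingerElation
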